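import Cfsg.Agent.Lib.Schur.Stem

/-!
# A perfect subgroup of index prime to `p` bounds the `p`-part of the Schur multiplier
-/

set_option autoImplicit false

namespace Cfsg.Agent.Lib.Schur.LyP.Sub

open Subgroup Cfsg.Agent.Lib.Schur.Stem
open scoped commutatorElement

universe u v

variable {Γ : Type u} {G : Type v} [Group Γ] [Group G]

/-- A surjection with central kernel onto a perfect group restricts to a perfect commutator subgroup. -/
theorem commutator_perfect {A B : Type*} [Group A] [Group B] (f : A →* B) (hf : Function.Surjective f)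
    (hc : f.ker ≤ center A) (hB : commutator B = ⊤) : commutator (commutator A) = ⊤ := by
  set D := commutator A with hD
  have hmap : D.map f = ⊤ := by
    rw [hD, _root_.commutator_def, Subgroup.map_commutator, ← MonoidHom.range_eq_map, MonoidHom.range_eq_top.2 hf]
    exact hB
  have hsplit : ∀ a : A, ∃ d ∈ D, ∃ k ∈ f.ker, a = d * k := by
    intro a
    have h1 : f a ∈ D.map f := by rw [hmap]; exact mem_top _
    obtain ⟨d, hd, h2⟩ := h1
    refine ⟨d, hd, d⁻¹ * a, ?_, by group⟩
    rw [MonoidHom.mem_ker, map_mul, map_inv, h2, inv_mul_cancel]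
  have hle : commutator A ≤ ⁅D, D⁆ := by
    rw [_root_.commutator_def, Subgroup.commutator_le]
    intro a _ b _
    obtain ⟨d, hd, k, hk, rfl⟩ := hsplit a
    obtain ⟨d', hd', k', hk', rfl⟩ := hsplit b
    have hk1 := mem_center_iff.1 (hc hk)
    have hk2 := mem_center_iff.1 (hc hk')
    have e : ⁅d * k, d' * k'⁆ = ⁅d, d'⁆ := by
      rw [commutatorElement_def, commutatorElement_def]
      have e1 : (d * k) * (d' * k') * (d * k)⁻¹ * (d' * k')⁻¹ =
          d * (k * d') * k' * (k⁻¹ * d⁻¹) * (k'⁻¹ * d'⁻¹) := by group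
      rw [e1, ← hk1 d']
      have e2 : d * (d' * k) * k' * (k⁻¹ * d⁻¹) * (k'⁻¹ * d'⁻¹) =
          d * d' * (k * k') * (k⁻¹ * d⁻¹) * (k'⁻¹ * d'⁻¹) := by group
      rw [e2]
      have e3 : k * k' = k' * k := hk1 k' |>.symm ▸ rfl
      rw [e3]
      have e4 : k' * k * (k⁻¹ * d⁻¹) * (k'⁻¹ * d'⁻¹) = k' * d⁻¹ * (k'⁻¹ * d'⁻¹) := by group
      have e5 : d * d' * (k' * k) * (k⁻¹ * d⁻¹) * (k'⁻¹ * d'⁻¹) =
          d * d' * (k' * k * (k⁻¹ * d⁻¹) * (k'⁻¹ * d'⁻¹)) := by group
      rw [e5, e4]
      have e6 : k' * d⁻¹ * (k'⁻¹ * d'⁻¹) = (k' * d⁻¹) * k'⁻¹ * d'⁻¹ := by group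
      rw [e6, ← hk2 d⁻¹]
      group
    rw [e]
    exact commutator_mem_commutator hd hd'
  rw [eq_top_iff]
  rintro ⟨d, hd⟩ -
  have h1 : d ∈ ⁅D, D⁆ := hle hd
  rw [← map_subtype_commutator] at h1
  obtain ⟨x, hx, rfl⟩ := h1
  exact hx

/-- The bound at a prime from a perfect subgroup of index prime to the prime. -/
theorem card_ker_of_perfect_subgroup [Finite Γ] {σ : Γ →* G} (hσ : Cfsg.IsStemExtension σ) (H : Subgroup G)
    (hperf : commutator H = ⊤)
    (hm : ∀ (Δ : Type u) [Group Δ] [Finite Δ] (τ : Δ →* H), Cfsg.IsStemExtension τ → Nat.card τ.ker ∣ 1)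
    {p : ℕ} [Fact p.Prime] (hcop : ¬ p ∣ H.index) (P : Sylow p Γ) :
    Nat.card (σ.subgroupMap (P : Subgroup Γ)).ker ∣ 1 := by
  have hpp : p.Prime := Fact.out
  obtain ⟨hsurj, hcen, hcom⟩ := hσ
  set K := comap σ H with hK
  -- the map of `K` onto `H`
  let f : K →* H :=
    { toFun := fun x => ⟨σ x, x.2⟩
      map_one' := Subtype.ext (map_one σ)
      map_mul' := fun x y => Subtype.ext (map_mul σ _ _) }
  have hf : Function.Surjective f := by
    rintro ⟨h, hh⟩
    obtain ⟨x, rfl⟩ := hsurj h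
    exact ⟨⟨x, hh⟩, rfl⟩
  have hfk : ∀ x : K, x ∈ f.ker ↔ (x : Γ) ∈ σ.ker := by
    intro x
    simp only [MonoidHom.mem_ker]
    exact Subtype.ext_iff
  have hfc : f.ker ≤ center K := by
    intro x hx
    rw [mem_center_iff]
    intro y
    have h1 := mem_center_iff.1 (hcen ((hfk x).1 hx))
    exact Subtype.ext (h1 y)
  have hD := commutator_perfect f hf hfc hperf
  set D := commutator K with hDdef
  -- the map of the commutator subgroup
  let τ : D →* H := f.comp D.subtype
  have hτ : Function.Surjective τ := by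
    have hmap : D.map f = ⊤ := by
      rw [hDdef, _root_.commutator_def, Subgroup.map_commutator, ← MonoidHom.range_eq_map, MonoidHom.range_eq_top.2 hf]
      exact hperf
    intro h
    have h1 : h ∈ D.map f := by rw [hmap]; exact mem_top _
    obtain ⟨d, hd, h2⟩ := h1
    exact ⟨⟨d, hd⟩, h2⟩
  have hstem : Cfsg.IsStemExtension τ := by
    refine ⟨hτ, ?_, ?_⟩
    · intro x hx
      rw [mem_center_iff]
      intro y
      have h1 := mem_center_iff.1 (hfc (x := (x : K)) hx)
      exact Subtype.ext (h1 y)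
    · intro x _
      rw [hD]
      exact mem_top _
  have hcard := hm D τ hstem
  have htriv : ∀ x : τ.ker, x = 1 := by
    have h1 : Nat.card τ.ker = 1 := Nat.dvd_one.1 hcard
    have h2 := (Nat.card_eq_one_iff_unique.1 h1).1
    exact fun x => Subsingleton.elim _ _
  -- every element of the kernel is trivial
  have hone : ∀ a : (σ.subgroupMap (P : Subgroup Γ)).ker, a = 1 := by
    intro a
    have ha : ((a : P) : Γ) ∈ σ.ker := mem_ker_subgroupMap.1 a.2
    obtain ⟨k, hk⟩ := P.2 (a : P)
    have hk' : ((a : P) : Γ) ^ p ^ k = 1 := by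
      have := congrArg Subtype.val hk
      simpa using this
    have hidx : K.index = H.index := index_comap_of_surjective H hsurj
    have hcop' : Nat.Coprime (orderOf ((a : P) : Γ)) K.index := by
      rw [hidx]
      have h1 : orderOf ((a : P) : Γ) ∣ p ^ k := orderOf_dvd_of_pow_eq_one hk'
      refine Nat.Coprime.coprime_dvd_left h1 ?_
      exact Nat.Coprime.pow_left _ ((Nat.Prime.coprime_iff_not_dvd hpp).2 hcop)
    have hmem := mem_commutator_of_coprime K (hcen ha) (hcom ha) hcop'
    obtain ⟨d, hd, hde⟩ := hmem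
    have h3 : (⟨d, hd⟩ : D) ∈ τ.ker := by
      refine (hfk d).2 ?_
      have hde' : (d : Γ) = ((a : P) : Γ) := hde
      rw [hde']
      exact ha
    have h4 := htriv ⟨⟨d, hd⟩, h3⟩
    have h5 : d = 1 := by
      have := congrArg (fun q : τ.ker => ((q : D) : K)) h4
      exact this
    have h6 : ((a : P) : Γ) = 1 := by
      have hde' : (d : Γ) = ((a : P) : Γ) := hde
      rw [← hde', h5]
      rfl
    exact Subtype.ext (Subtype.ext h6)
  have : Subsingleton (σ.subgroupMap (P : Subgroup Γ)).ker :=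
    ⟨fun a b => by rw [hone a, hone b]⟩
  rw [Nat.card_unique]

end Cfsg.Agent.Lib.Schur.LyP.Sub
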