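import Cfsg.Agent.Lib.DCE.Ly.Final.Card
import Cfsg.Agent.Lib.Steinberg.Schur
import Cfsg.Agent.Lib.Schur.LyP.Sub

/-!
# The prime five for the Lyons group: the subgroup `G₂(5)` has index prime to five and no multiplier
-/

set_option autoImplicit false

namespace Cfsg.Agent.Lib.Schur.LyP.P5

open Subgroup Cfsg.Agent.Lib.DCE.Ly.Exp Cfsg.Agent.Lib.DCE.Ly.Final Cfsg.Agent.Lib.Schur.LyP.Sub

theorem card_F5 : 5 ≤ Fintype.card Cfsg.Agent.Lib.DCE.Ly.H.Tgt.F5 := by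
  simp [Cfsg.Agent.Lib.DCE.Ly.H.Tgt.F5, ZMod.card]

theorem hmG2 (Δ : Type) [Group Δ] [Finite Δ] (τ : Δ →* TT) (hτ : Cfsg.IsStemExtension τ) : Nat.card τ.ker ∣ 1 := by
  obtain ⟨e⟩ := equiv_TT
  have hm := (Cfsg.Agent.Lib.Steinberg.Schur.schur_G2 card_F5).2
  let τ' : Δ →* Cfsg.Lie.chevG2.group Cfsg.Agent.Lib.DCE.Ly.H.Tgt.F5 := e.toMonoidHom.comp τ
  have hk : τ'.ker = τ.ker := by
    ext x
    simp [τ', MonoidHom.mem_ker]
  have hstem : Cfsg.IsStemExtension τ' := by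
    refine ⟨e.surjective.comp hτ.1, ?_, ?_⟩
    · rw [hk]; exact hτ.2.1
    · rw [hk]; exact hτ.2.2
  obtain ⟨π, hπ⟩ := hm Δ τ' hstem
  have hsub : Subsingleton τ'.ker := by
    refine ⟨fun a b => ?_⟩
    obtain ⟨a', rfl⟩ := hπ a
    obtain ⟨b', rfl⟩ := hπ b
    congr 1
    exact Subsingleton.elim _ _
  rw [← hk, Nat.card_unique]

theorem simple_TT : IsSimpleGroup TT := by
  obtain ⟨e⟩ := equiv_TT
  obtain ⟨e2, _⟩ := Cfsg.Agent.Lib.DCE.Ly.H.Tgt.equiv_T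
  have := Cfsg.Agent.Lib.DCE.Ly.H.Tgt.simple_Q
  exact (e.trans e2.symm).isSimpleGroup

theorem perfect_TT : commutator TT = ⊤ := by
  have := simple_TT
  rcases IsSimpleGroup.eq_bot_or_eq_top_of_normal (commutator TT) inferInstance with h | h
  · exfalso
    have hc : center TT = ⊤ := (commutator_eq_bot_iff_center_eq_top TT).1 h
    letI : CommGroup TT := Group.commGroupOfCenterEqTop hc
    have hp := IsSimpleGroup.prime_card (α := TT)
    have hcard : Nat.card TT = 5859000000 := by rw [TT_eq]; exact card_HH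
    rw [hcard] at hp
    norm_num at hp
  · exact h

theorem card_ker {Γ' : Type} [Group Γ'] [Finite Γ'] [Fact (Nat.Prime 5)] {σ : Γ' →* Γ} (hσ : Cfsg.IsStemExtension σ)
    (P : Sylow 5 Γ') : Nat.card (σ.subgroupMap (P : Subgroup Γ')).ker ∣ 1 :=
  card_ker_of_perfect_subgroup hσ TT perfect_TT hmG2 (by rw [index_TT]; norm_num) P

end Cfsg.Agent.Lib.Schur.LyP.P5
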