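import Cfsg.Agent.Lib.DCE.Ly.Final.Card
import Cfsg.Agent.Lib.Schur.PcMain

/-!
# Tail certificates for the Lyons group, checked in the faithful representation of degree `111`

Elements of the group are given by their matrices over the field with five elements.  A relation between elements
is a computation with these matrices.
-/

set_option autoImplicit false
set_option maxRecDepth 100000

namespace Cfsg.Agent.Lib.Schur.LyP.Rep

open Cfsg.Agent.Lib.DCE.MatP Cfsg.Agent.Lib.DCE.Ly.Exp Cfsg.Agent.Lib.DCE.Ly.Model.Let
  Cfsg.Agent.Lib.DCE.Ly.Model.Rho Cfsg.Agent.Lib.DCE.Ly.Final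
  Cfsg.Agent.Lib.Schur.PcCert Cfsg.Agent.Lib.Schur.PcMain Cfsg.Agent.Lib.Schur.PcGroup

/-- The sum of multiples of rows, by the recursor. -/
noncomputable def addRowsF (B : List Nat) : Nat → Nat → Nat :=
  List.rec (fun _ acc => acc)
    (fun r _ ih a acc => ih (Nat.div a 65536) (Nat.add acc (Nat.mul (Nat.mod a 65536) r))) B

/-- The reduction of digits, by the recursor. -/
noncomputable def redF (n : Nat) : Nat → Nat :=
  Nat.rec (fun _ => 0)
    (fun _ ih x => Nat.add (Nat.mod (Nat.mod x 65536) 5) (Nat.mul 65536 (ih (Nat.div x 65536)))) n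

/-- The product of matrices, by the recursor. -/
noncomputable def mulF (A B : List Nat) : List Nat :=
  List.rec [] (fun a _ ih => List.cons (redF 111 (addRowsF B a 0)) ih) A

/-- The product of a word, by the recursor. -/
noncomputable def prodF (T : List (List Nat)) (acc : List Nat) (w : List Nat) : List Nat :=
  List.rec (fun acc => acc) (fun l _ ih acc => ih (mulF acc (T.getD l []))) w acc

theorem addRowsF_eq (B : List Nat) (a acc : Nat) : addRowsF B a acc = addRows B a acc := by
  induction B generalizing a acc with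
  | nil => rfl
  | cons r B ih => exact ih _ _

theorem redF_eq (n x : Nat) : redF n x = red 5 n x := by
  induction n generalizing x with
  | zero => rfl
  | succ n ih =>
    change Nat.add (Nat.mod (Nat.mod x 65536) 5) (Nat.mul 65536 (redF n (Nat.div x 65536))) = _
    rw [ih]
    rfl

theorem mulF_eq (A B : List Nat) : mulF A B = mulM 5 111 A B := by
  induction A with
  | nil => rfl
  | cons a A ih =>
    change List.cons (redF 111 (addRowsF B a 0)) (mulF A B) = _
    rw [ih, redF_eq, addRowsF_eq]
    rfl

theorem prodF_eq (T : List (List Nat)) (w acc : List Nat) : prodF T acc w = prodW 5 111 T acc w := by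
  induction w generalizing acc with
  | nil => rfl
  | cons l w ih =>
    change prodF T (mulF acc (T.getD l [])) w = _
    rw [ih, mulF_eq]
    rfl

/-- A list of rows is the matrix of an element of the group. -/
def Rep (A : List Nat) : Prop := GoodM 5 111 A ∧ ∃ x : Γ, (rho x).val = toM 5 111 A

theorem toM_rowsMul {A B : List Nat} (hA : GoodM 5 111 A) (hB : GoodM 5 111 B) :
    toM 5 111 (mulM 5 111 A B) = toM 5 111 A * toM 5 111 B :=
  toM_mulM 5 111 (by norm_num) (by norm_num) A B hA hB

theorem rep_one : Rep (idM 111) :=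
  ⟨goodM_idM 5 111 (by norm_num), 1, by rw [map_one, toM_idM]; rfl⟩

theorem rep_mul {A B : List Nat} (hA : Rep A) (hB : Rep B) : Rep (mulM 5 111 A B) := by
  obtain ⟨h1, x, hx⟩ := hA
  obtain ⟨h2, y, hy⟩ := hB
  refine ⟨goodM_mulM 5 111 (by norm_num) A B h1, x * y, ?_⟩
  rw [map_mul, Units.val_mul, hx, hy, toM_rowsMul h1 h2]

theorem rep_of_beq {A B : List Nat} (h : Rep A) (hb : (A == B) = true) : Rep B := by
  have : A = B := by simpa using hb
  rwa [← this]

theorem rep_prodW (T : List (List Nat)) (hT : ∀ l, l < T.length → Rep (T.getD l [])) (w : List Nat)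
    (hw : ∀ l ∈ w, l < T.length) (acc : List Nat) (ha : Rep acc) : Rep (prodW 5 111 T acc w) := by
  induction w generalizing acc with
  | nil => exact ha
  | cons l w ih =>
    rw [prodW]
    exact ih (fun x hx => hw x (by simp [hx])) _ (rep_mul ha (hT l (hw l (by simp))))

/-- The check that a word in a table has a given value. -/
noncomputable def wordIs (T : List (List Nat)) (w : List Nat) (C : List Nat) : Bool :=
  w.all (fun l => Nat.blt l T.length) && prodF T (idM 111) w == C

theorem wordIs_spec {T : List (List Nat)} {w C : List Nat} (h : wordIs T w C = true) :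
    (∀ l ∈ w, l < T.length) ∧ prodW 5 111 T (idM 111) w = C := by
  simp only [wordIs, Bool.and_eq_true, List.all_eq_true, beq_iff_eq, prodF_eq] at h
  refine ⟨fun l hl => ?_, h.2⟩
  have := h.1 l hl
  rwa [Nat.blt_eq] at this

/-- A table of two matrices. -/
theorem rep_word {T : List (List Nat)} (hT : ∀ l, l < T.length → Rep (T.getD l [])) {w C : List Nat}
    (h : wordIs T w C = true) : Rep C := by
  obtain ⟨h1, h2⟩ := wordIs_spec h
  rw [← h2]
  exact rep_prodW T hT w h1 _ rep_one

theorem rep_cons {A : List Nat} {T : List (List Nat)} (hA : Rep A)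
    (hT : ∀ l, l < T.length → Rep (T.getD l [])) :
    ∀ l, l < (A :: T).length → Rep ((A :: T).getD l []) := by
  intro l hl
  cases l with
  | zero => simpa using hA
  | succ l =>
    have : (A :: T).getD (l + 1) [] = T.getD l [] := by simp
    rw [this]
    exact hT l (by simpa using hl)

theorem rep_nil : ∀ l, l < ([] : List (List Nat)).length → Rep (([] : List (List Nat)).getD l []) := by
  intro l hl
  simp at hl

theorem rep_inv {A B : List Nat} (hA : Rep A) (hgood : goodB 5 111 B = true)
    (h : (mulF A B == idM 111) = true) : Rep B := by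
  obtain ⟨h1, x, hx⟩ := hA
  have hB : GoodM 5 111 B := goodM_of_goodB 5 111 (by norm_num) B hgood
  refine ⟨hB, x⁻¹, ?_⟩
  have h2 : mulM 5 111 A B = idM 111 := by
    rw [← mulF_eq]
    simpa using h
  have h3 : toM 5 111 A * toM 5 111 B = 1 := by
    rw [← toM_rowsMul h1 hB, h2, toM_idM]
  have h4 : (rho x⁻¹).val * (rho x).val = 1 := by
    rw [← Units.val_mul, ← map_mul, inv_mul_cancel, map_one, Units.val_one]
  calc (rho x⁻¹).val = (rho x⁻¹).val * (toM 5 111 A * toM 5 111 B) := by rw [h3, mul_one]
    _ = ((rho x⁻¹).val * (rho x).val) * toM 5 111 B := by rw [hx, mul_assoc]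
    _ = toM 5 111 B := by rw [h4, one_mul]

theorem rep_lets (c : Nat) (hc : c < 12) : Rep (lets.getD c []) := by
  refine ⟨goodM_of_goodB 5 111 (by norm_num) _ ?_, L c, ?_⟩
  · have hlen : lets.length = 12 := by decide +kernel
    have h1 : lets.getD c [] ∈ lets := by
      simp [List.getD_eq_getElem?_getD, hlen, hc]
    exact List.all_eq_true.mp hgood _ h1
  · rw [rho_L c hc, F_val hc]
    rfl

theorem rep_lets_all : ∀ l, l < lets.length → Rep (lets.getD l []) := by
  intro l hl
  have hlen : lets.length = 12 := by decide +kernel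
  exact rep_lets l (by omega)

theorem rep_elt {w : List Nat} {G : List Nat} (hg : goodB 5 111 G = true) (h : chkWord w G = true) : Rep G :=
  ⟨goodM_of_goodB 5 111 (by norm_num) _ hg, elt w, rho_elt_of_chk h⟩

/-- The table of the generators of a subgroup. -/
theorem rep_of_chk {Gs : List (List Nat)} {n : ℕ} (hlen : Gs.length = n) (hg : goodT 5 111 Gs = true)
    {words : List (List Nat)} (hchk : ∀ g, g < n → chkWord (words.getD g []) (Gs.getD g []) = true) :
    ∀ l, l < Gs.length → Rep (Gs.getD l []) := by
  intro l hl
  refine rep_elt ?_ (hchk l (by omega))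
  have h1 : Gs.getD l [] ∈ Gs := by
    simp [List.getD_eq_getElem?_getD, hl]
  exact List.all_eq_true.mp hg _ h1

section Table

variable (T : List (List Nat)) (hT : ∀ l, l < T.length → Rep (T.getD l []))

/-- The elements of a table. -/
noncomputable def tt (l : ℕ) : Γ :=
  if h : l < T.length then Classical.choose (hT l h).2 else 1

theorem rho_tt (l : ℕ) (h : l < T.length) : (rho (tt T hT l)).val = toM 5 111 (T.getD l []) := by
  rw [tt, dif_pos h]
  exact Classical.choose_spec (hT l h).2

theorem rho_wEval_aux (w : List Nat) (hw : ∀ l ∈ w, l < T.length) (acc : List Nat) (ha : GoodM 5 111 acc) :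
    toM 5 111 acc * (rho (wEval (tt T hT) w)).val = toM 5 111 (prodW 5 111 T acc w) := by
  induction w generalizing acc with
  | nil => simp [prodW]
  | cons l w ih =>
    have hl : l < T.length := hw l (by simp)
    have hgl := (hT l hl).1
    rw [wEval_cons, map_mul, Units.val_mul, prodW,
      ← ih (fun x hx => hw x (by simp [hx])) _ (goodM_mulM 5 111 (by norm_num) _ _ ha),
      toM_rowsMul ha hgl, rho_tt T hT l hl, mul_assoc]

theorem rho_wEval (w : List Nat) (hw : ∀ l ∈ w, l < T.length) :
    (rho (wEval (tt T hT) w)).val = toM 5 111 (prodW 5 111 T (idM 111) w) := by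
  rw [← rho_wEval_aux T hT w hw _ (goodM_idM 5 111 (by norm_num)), toM_idM, one_mul]

/-- The check that two words in a table have the same value. -/
noncomputable def eqW (T : List (List Nat)) (w₁ w₂ : List Nat) : Bool :=
  w₁.all (fun l => Nat.blt l T.length) && w₂.all (fun l => Nat.blt l T.length) &&
    prodF T (idM 111) w₁ == prodF T (idM 111) w₂

theorem wEval_eq_of_eqW {w₁ w₂ : List Nat} (h : eqW T w₁ w₂ = true) :
    wEval (tt T hT) w₁ = wEval (tt T hT) w₂ := by
  simp only [eqW, Bool.and_eq_true, List.all_eq_true, beq_iff_eq, Nat.blt_eq, prodF_eq] at h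
  obtain ⟨⟨h1, h2⟩, h3⟩ := h
  apply rho_inj
  apply Units.ext
  rw [rho_wEval T hT w₁ h1, rho_wEval T hT w₂ h2, h3]

end Table

section Main

/-- One fusion item. -/
noncomputable def chk3 (c : Cert) (T : List (List Nat)) (f : ℕ) : Bool :=
  Nat.beq (c.items.getD f ([], [])).1.length (c.items.getD f ([], [])).2.length &&
    (List.range (c.items.getD f ([], [])).1.length).all fun l =>
      eqW T (c.lett f l ++ [c.n + f]) ((c.n + f) :: c.letb f l)

/-- The generators of the orbit computation are words in the letters. -/
noncomputable def chk4 (c : Cert) (T : List (List Nat)) (Gs : List (List Nat)) (wG : List (List Nat)) (r : ℕ) : Bool :=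
  (List.range r).all fun g =>
    (wG.getD g []).all (fun l => Nat.blt l c.n) && Nat.blt c.n (T.length + 1) &&
      prodF T (idM 111) (wG.getD g []) == Gs.getD g []

variable {Γ' : Type*} [Group Γ'] [Finite Γ']

theorem card_ker_of_table (c : Cert) (hc : c.check = true) {p : ℕ} [Fact p.Prime] (hpc : c.p = p)
    (T : List (List Nat)) (hT : ∀ l, l < T.length → Rep (T.getD l []))
    (h1 : ∀ j i, i < j → j < c.n → eqW T [j, i] (i :: c.rule j i) = true)
    (h2 : ∀ i, i < c.n → eqW T (List.replicate c.p i) (c.rule i i) = true)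
    (h3 : ∀ f, f < c.items.length → chk3 c T f = true)
    (Gs : List (List Nat)) (wG : List (List Nat)) (r : ℕ) (vs : ℕ → ℕ) (pi : ℕ → ℕ → ℕ)
    (h4 : chk4 c T Gs wG r = true) (hgoodG : goodT 5 111 Gs = true) (hlen : r ≤ Gs.length)
    (N : ℕ) (hN : c.p ^ c.n = N) (r0 : ℕ) (hr0 : r0 < N) (pr gn dp : ℕ → ℕ)
    (hP : allN (chkPoint 5 111 Gs r vs pi N) N = true)
    (hO : allN (chkOrd vs) (N - 1) = true)
    (hTr : allN (chkTree r pi N r0 pr gn dp) N = true)
    {m : ℕ} (hG : 51765179004000000 = c.p ^ c.n * m) (hm : ¬ p ∣ m)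
    {σ : Γ' →* Γ} (hσ : Cfsg.IsStemExtension σ) (P : Sylow p Γ') :
    Nat.card (σ.subgroupMap (P : Subgroup Γ')).ker ∣ c.zm := by
  subst hN
  set e := tt T hT with he
  refine card_ker_sylow_dvd c hc hpc hσ e (fun f => e (c.n + f)) ?_ ?_ ?_ ?_ (m := m) ?_ hm P
  · intro j i hij hj
    have := wEval_eq_of_eqW T hT (h1 j i hij hj)
    simpa using this
  · intro i hi
    have := wEval_eq_of_eqW T hT (h2 i hi)
    rwa [wEval_replicate] at this
  · intro f l
    by_cases hf : f < c.items.length
    · have h3' := h3 f hf
      simp only [chk3, List.all_eq_true, List.mem_range, Bool.and_eq_true] at h3'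
      obtain ⟨h5, h6⟩ := h3'
      by_cases hl : l < (c.items.getD f ([], [])).1.length
      · have := wEval_eq_of_eqW T hT (h6 l hl)
        rw [wEval_append, wEval_cons] at this
        simp only [wEval_cons, wEval_nil, mul_one] at this
        rw [mul_assoc, inv_mul_eq_iff_eq_mul]
        exact this
      · have h7 : (c.items.getD f ([], [])).1.length = (c.items.getD f ([], [])).2.length :=
          Nat.eq_of_beq_eq_true h5
        have e1 : c.lett f l = [] := by
          simp only [Cert.lett]
          rw [List.getD_eq_default _ _ (by omega)]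
        have e2 : c.letb f l = [] := by
          simp only [Cert.letb]
          rw [List.getD_eq_default _ _ (by omega)]
        rw [e1, e2]
        simp
    · have e0 : c.items.getD f ([], []) = ([], []) := List.getD_eq_default _ _ (by omega)
      have e1 : c.lett f l = [] := by
        simp only [Cert.lett]
        rw [e0]
        rfl
      have e2 : c.letb f l = [] := by
        simp only [Cert.letb]
        rw [e0]
        rfl
      rw [e1, e2]
      simp
  · -- the order of the chain
    set S := chain e c.n ⊥ 0 with hS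
    have hfin : Finite S := inferInstance
    have hts : ∀ g, g < r → ∃ t : S, (rho (t : Γ)).val = toM 5 111 (Gs.getD g []) := by
      intro g hg
      simp only [chk4, List.all_eq_true, List.mem_range, Bool.and_eq_true, beq_iff_eq, Nat.blt_eq, prodF_eq] at h4
      obtain ⟨⟨h5, h6⟩, h7⟩ := h4 g hg
      have hw : ∀ l ∈ wG.getD g [], l < T.length := fun l hl => by
        have h8 := h5 l hl
        have h9 : l < c.n := h8
        have h10 : c.n < T.length + 1 := h6
        omega
      refine ⟨⟨wEval e (wG.getD g []), wEval_mem_chain e c.n ⊥ fun x hx => ⟨Nat.zero_le _, h5 x hx⟩⟩, ?_⟩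
      rw [← h7]
      exact rho_wEval T hT _ hw
    choose! t ht using hts
    have hd := dvd_of_orbit (p := 5) (d := 111) (Gs := Gs) (n := r) (vs := vs) (pi := pi) (m := c.p ^ c.n)
      (by norm_num) (by norm_num) (rho.comp S.subtype) t hgoodG hlen
      (fun g hg => ht g hg) r0 hr0 pr gn dp hP hO hTr
    exact Nat.le_of_dvd Nat.card_pos hd
  · rw [card_G, hG]

end Main

end Cfsg.Agent.Lib.Schur.LyP.Rep
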